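import Cfsg.Agent.Lib.Spor.ON3.Data

set_option autoImplicit false

namespace Cfsg.Agent.Spor.ON3
open Cfsg.Agent.PG Cfsg.Agent.Spor Matrix

/-- a cube root of unity -/
def u : (ZMod P.p)ˣ := (⟨2, 4, by decide, by decide⟩ : (ZMod 7)ˣ)

/-- the scalars -/
noncomputable abbrev Z : Subgroup (GL (Fin P.n) (ZMod P.p)) :=
  Subgroup.zpowers (GeneralLinearGroup.scalar (Fin P.n) u)

theorem Z_le : Z ≤ Subgroup.center _ := Subgroup.zpowers_le_of_mem
  (Subgroup.mem_center_iff.2 fun g => (GeneralLinearGroup.scalar_commute u g).symm)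

instance Z_normal : Z.Normal := ⟨fun n hn g => by
  rw [Subgroup.mem_center_iff.1 (Z_le hn) g, mul_inv_cancel_right]; exact hn⟩

theorem hZ : ∀ a ∈ [1, 2, 4], a ≤ P.n * (2 ^ P.k - 1) ∧ ∃ ζ ∈ Z, ζ.1 = (a : ZMod P.p) • 1 := by
  have h : ∀ k : ℕ, ∃ ζ ∈ Z, ζ.1 = ((u ^ k : (ZMod P.p)ˣ) : ZMod P.p) • 1 := fun k =>
    ⟨_, Subgroup.pow_mem _ (Subgroup.mem_zpowers _) k, by
      rw [← map_pow, GeneralLinearGroup.coe_scalar, scalar_apply, smul_one_eq_diagonal]⟩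
  intro a ha
  simp only [List.mem_cons, List.not_mem_nil, or_false] at ha
  rcases ha with rfl | rfl | rfl
  · exact ⟨by decide, h 0⟩
  · exact ⟨by decide, h 1⟩
  · exact ⟨by decide, h 2⟩

/-- the letters modulo scalars -/
noncomputable abbrev γ : ℕ → GL (Fin P.n) (ZMod P.p) ⧸ Z :=
  fun j => QuotientGroup.mk' Z (gam P L j)

theorem γ_of_le {j : ℕ} (h : L.length ≤ j) : γ j = 1 := by
  show QuotientGroup.mk' Z (gam P L j) = 1
  rw [gam_of_le P h, map_one]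

end Cfsg.Agent.Spor.ON3
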