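import Cfsg.Agent.Lib.Spor.ON3.Data
import Cfsg.Agent.Lib.Spor.ON3.Pre
import Cfsg.Agent.Lib.Spor.ON.Defs

set_option autoImplicit false
set_option maxRecDepth 100000
set_option Elab.async false
set_option exponentiation.threshold 100000

namespace Cfsg.Agent.Spor.ON3
open Cfsg.Agent.PG Cfsg.Agent.Spor

theorem mcl6_0 : chkS P L [1, 2, 4] (Cfsg.Agent.Spor.ON.cl6_l) = true := by decide +kernel

theorem mcl5_0 : chkS P L [1, 2, 4] (Cfsg.Agent.Spor.ON.cl5_l) = true := by decide +kernel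

theorem mcl4_0 : chkS P L [1, 2, 4] (Cfsg.Agent.Spor.ON.cl4_l) = true := by decide +kernel

theorem mcl3_0 : chkS P L [1, 2, 4] (Cfsg.Agent.Spor.ON.cl3_l) = true := by decide +kernel

theorem mcl2_0 : chkS P L [1, 2, 4] (Cfsg.Agent.Spor.ON.cl2_l) = true := by decide +kernel

theorem mcl1_0 : chkS P L [1, 2, 4] ((Cfsg.Agent.Spor.ON.cl1_l).take 198) = true := by decide +kernel

theorem mcl1_1 : chkS P L [1, 2, 4] ((Cfsg.Agent.Spor.ON.cl1_l).drop 198) = true := by decide +kernel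

theorem mcl0_0 : chkS P L [1, 2, 4] ((Cfsg.Agent.Spor.ON.cl0_l).take 138) = true := by decide +kernel

theorem mcl0_1 : chkS P L [1, 2, 4] (((Cfsg.Agent.Spor.ON.cl0_l).drop 138).take 115) = true := by decide +kernel

theorem mcl0_2 : chkS P L [1, 2, 4] (((Cfsg.Agent.Spor.ON.cl0_l).drop 138).drop 115) = true := by decide +kernel

end Cfsg.Agent.Spor.ON3
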