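import Cfsg.Agent.Lib.Spor.ON3.Data
import Cfsg.Agent.Lib.Spor.ON3.Pre
import Cfsg.Agent.Lib.Spor.ON.Defs
import Cfsg.Agent.Lib.Spor.ON3.C0
import Cfsg.Agent.Lib.Spor.ON.Main

set_option autoImplicit false
set_option maxRecDepth 100000
set_option Elab.async false
set_option exponentiation.threshold 100000

namespace Cfsg.Agent.Spor.ON3
open Cfsg.Agent.PG Cfsg.Agent.Spor

theorem hγ : ∀ j, Cfsg.Agent.Spor.ON.A.length ≤ j → γ j = 1 := fun j hj => γ_of_le (by rw [Cfsg.Agent.Spor.ON.hlen] at hj; rw [lenL]; exact hj)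

theorem lift7 : Lift Cfsg.Agent.Spor.ON.A γ 7 := lift_last fun j hj => hγ j (by rw [Cfsg.Agent.Spor.ON.hlen]; exact hj)

theorem mcl6 : ∀ c ∈ Cfsg.Agent.Spor.ON.cl6_l, HoldsG γ c :=
  (chkS_spec good hZ mcl6_0)

theorem lift6 : Lift Cfsg.Agent.Spor.ON.A γ 6 :=
  lift_plain Cfsg.Agent.Spor.ON.hA hγ lift7 Cfsg.Agent.Spor.ON.ok6 Cfsg.Agent.Spor.ON.cl6 mcl6

theorem mcl5 : ∀ c ∈ Cfsg.Agent.Spor.ON.cl5_l, HoldsG γ c :=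
  (chkS_spec good hZ mcl5_0)

theorem lift5 : Lift Cfsg.Agent.Spor.ON.A γ 5 :=
  lift_plain Cfsg.Agent.Spor.ON.hA hγ lift6 Cfsg.Agent.Spor.ON.ok5 Cfsg.Agent.Spor.ON.cl5 mcl5

theorem mcl4 : ∀ c ∈ Cfsg.Agent.Spor.ON.cl4_l, HoldsG γ c :=
  (chkS_spec good hZ mcl4_0)

theorem lift4 : Lift Cfsg.Agent.Spor.ON.A γ 4 :=
  lift_plain Cfsg.Agent.Spor.ON.hA hγ lift5 Cfsg.Agent.Spor.ON.ok4 Cfsg.Agent.Spor.ON.cl4 mcl4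

theorem mcl3 : ∀ c ∈ Cfsg.Agent.Spor.ON.cl3_l, HoldsG γ c :=
  (chkS_spec good hZ mcl3_0)

theorem lift3 : Lift Cfsg.Agent.Spor.ON.A γ 3 :=
  lift_plain Cfsg.Agent.Spor.ON.hA hγ lift4 Cfsg.Agent.Spor.ON.ok3 Cfsg.Agent.Spor.ON.cl3 mcl3

theorem mcl2 : ∀ c ∈ Cfsg.Agent.Spor.ON.cl2_l, HoldsG γ c :=
  (chkS_spec good hZ mcl2_0)

theorem lift2 : Lift Cfsg.Agent.Spor.ON.A γ 2 :=
  lift_dc Cfsg.Agent.Spor.ON.hA hγ lift3 Cfsg.Agent.Spor.ON.stab3 Cfsg.Agent.Spor.ON.ok2 Cfsg.Agent.Spor.ON.cl2 mcl2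

theorem mcl1 : ∀ c ∈ Cfsg.Agent.Spor.ON.cl1_l, HoldsG γ c :=
  (forall_take_drop 198 (chkS_spec good hZ mcl1_0)
  (chkS_spec good hZ mcl1_1))

theorem lift1 : Lift Cfsg.Agent.Spor.ON.A γ 1 :=
  lift_dc' Cfsg.Agent.Spor.ON.hA hγ lift2 Cfsg.Agent.Spor.ON.stab2 Cfsg.Agent.Spor.ON.ok1
  (forall_take_drop 1 (allL_spec Cfsg.Agent.Spor.ON.ok1_0)
  (forall_take_drop 1 (allL_spec Cfsg.Agent.Spor.ON.ok1_1)
  (forall_take_drop 1 (allL_spec Cfsg.Agent.Spor.ON.ok1_2)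
  (forall_take_drop 1 (allL_spec Cfsg.Agent.Spor.ON.ok1_3)
  (forall_take_drop 1 (allL_spec Cfsg.Agent.Spor.ON.ok1_4)
  (forall_take_drop 1 (allL_spec Cfsg.Agent.Spor.ON.ok1_5)
  (forall_take_drop 1 (allL_spec Cfsg.Agent.Spor.ON.ok1_6)
  (forall_take_drop 1 (allL_spec Cfsg.Agent.Spor.ON.ok1_7)
  (forall_take_drop 1 (allL_spec Cfsg.Agent.Spor.ON.ok1_8)
  (forall_take_drop 1 (allL_spec Cfsg.Agent.Spor.ON.ok1_9)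
  (forall_take_drop 1 (allL_spec Cfsg.Agent.Spor.ON.ok1_10)
  (forall_take_drop 1 (allL_spec Cfsg.Agent.Spor.ON.ok1_11)
  (forall_take_drop 1 (allL_spec Cfsg.Agent.Spor.ON.ok1_12)
  (forall_take_drop 1 (allL_spec Cfsg.Agent.Spor.ON.ok1_13)
  (forall_take_drop 1 (allL_spec Cfsg.Agent.Spor.ON.ok1_14)
  (forall_take_drop 1 (allL_spec Cfsg.Agent.Spor.ON.ok1_15)
  (forall_take_drop 1 (allL_spec Cfsg.Agent.Spor.ON.ok1_16)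
  (forall_take_drop 1 (allL_spec Cfsg.Agent.Spor.ON.ok1_17)
  (forall_take_drop 1 (allL_spec Cfsg.Agent.Spor.ON.ok1_18)
  (forall_take_drop 1 (allL_spec Cfsg.Agent.Spor.ON.ok1_19)
  (forall_take_drop 1 (allL_spec Cfsg.Agent.Spor.ON.ok1_20)
  (forall_take_drop 1 (allL_spec Cfsg.Agent.Spor.ON.ok1_21)
  (forall_take_drop 1 (allL_spec Cfsg.Agent.Spor.ON.ok1_22)
  (allL_spec Cfsg.Agent.Spor.ON.ok1_23)))))))))))))))))))))))) Cfsg.Agent.Spor.ON.cl1 mcl1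

theorem mcl0 : ∀ c ∈ Cfsg.Agent.Spor.ON.cl0_l, HoldsG γ c :=
  (forall_take_drop 138 (chkS_spec good hZ mcl0_0)
  (forall_take_drop 115 (chkS_spec good hZ mcl0_1)
  (chkS_spec good hZ mcl0_2)))

theorem lift0 : Lift Cfsg.Agent.Spor.ON.A γ 0 :=
  lift_dc' Cfsg.Agent.Spor.ON.hA hγ lift1 Cfsg.Agent.Spor.ON.stab1 Cfsg.Agent.Spor.ON.ok0
  (forall_take_drop 1 (allL_spec Cfsg.Agent.Spor.ON.ok0_0)
  (forall_take_drop 1 (allL_spec Cfsg.Agent.Spor.ON.ok0_1)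
  (forall_take_drop 1 (allL_spec Cfsg.Agent.Spor.ON.ok0_2)
  (forall_take_drop 1 (allL_spec Cfsg.Agent.Spor.ON.ok0_3)
  (allL_spec Cfsg.Agent.Spor.ON.ok0_4))))) Cfsg.Agent.Spor.ON.cl0 mcl0

end Cfsg.Agent.Spor.ON3
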